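import Cfsg.Agent.Lib.KnownSimple.U43Lab.Data

set_option autoImplicit false
set_option maxRecDepth 100000

namespace Cfsg.Agent.Lib.KnownSimple.U43Lab

open Cfsg.Agent.Lib.KnownSimple.Lab Cfsg.Agent.Lib.KnownSimple.U43Lab Dat

theorem hES35c1_c0 : allI (fun i => lowOK D.T lN1 3 2 wES35 i) 0 410 = true := by decide +kernel
theorem hES35c1_u0 : ∀ i, i < 410 → (fun i => lowOK D.T lN1 3 2 wES35 i) i = true :=
  allI_join allI_start hES35c1_c0 rfl
theorem hES35c1_c1 : allI (fun i => lowOK D.T lN1 3 2 wES35 i) 410 130 = true := by decide +kernel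
theorem hES35c1_u1 : ∀ i, i < 540 → (fun i => lowOK D.T lN1 3 2 wES35 i) i = true :=
  allI_join hES35c1_u0 hES35c1_c1 rfl
theorem hES35c1 : ∀ i, i < 540 → (fun i => lowOK D.T lN1 3 2 wES35 i) i = true := hES35c1_u1
theorem hES35c2_c0 : allI (fun i => lowOK D.T lN2 3 2 wES35 i) 0 410 = true := by decide +kernel
theorem hES35c2_u0 : ∀ i, i < 410 → (fun i => lowOK D.T lN2 3 2 wES35 i) i = true :=
  allI_join allI_start hES35c2_c0 rfl
theorem hES35c2_c1 : allI (fun i => lowOK D.T lN2 3 2 wES35 i) 410 130 = true := by decide +kernel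
theorem hES35c2_u1 : ∀ i, i < 540 → (fun i => lowOK D.T lN2 3 2 wES35 i) i = true :=
  allI_join hES35c2_u0 hES35c2_c1 rfl
theorem hES35c2 : ∀ i, i < 540 → (fun i => lowOK D.T lN2 3 2 wES35 i) i = true := hES35c2_u1
theorem hES36c0_c0 : allI (fun i => lowOK D.T lN0 4 1 wES36 i) 0 540 = true := by decide +kernel
theorem hES36c0_u0 : ∀ i, i < 540 → (fun i => lowOK D.T lN0 4 1 wES36 i) i = true :=
  allI_join allI_start hES36c0_c0 rfl
theorem hES36c0 : ∀ i, i < 540 → (fun i => lowOK D.T lN0 4 1 wES36 i) i = true := hES36c0_u0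
theorem hES36c1_c0 : allI (fun i => lowOK D.T lN1 3 2 wES36 i) 0 540 = true := by decide +kernel
theorem hES36c1_u0 : ∀ i, i < 540 → (fun i => lowOK D.T lN1 3 2 wES36 i) i = true :=
  allI_join allI_start hES36c1_c0 rfl
theorem hES36c1 : ∀ i, i < 540 → (fun i => lowOK D.T lN1 3 2 wES36 i) i = true := hES36c1_u0
theorem hES36c2_c0 : allI (fun i => lowOK D.T lN2 3 1 wES36 i) 0 540 = true := by decide +kernel
theorem hES36c2_u0 : ∀ i, i < 540 → (fun i => lowOK D.T lN2 3 1 wES36 i) i = true :=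
  allI_join allI_start hES36c2_c0 rfl
theorem hES36c2 : ∀ i, i < 540 → (fun i => lowOK D.T lN2 3 1 wES36 i) i = true := hES36c2_u0

end Cfsg.Agent.Lib.KnownSimple.U43Lab
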