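-- Generated: a labelled coset table for `U43`.
import Cfsg.Agent.Lib.KnownSimple.U43Lab.ChecksA
import Cfsg.Agent.Lib.KnownSimple.U43Lab.ChecksB0
import Cfsg.Agent.Lib.KnownSimple.U43Lab.ChecksB1
import Cfsg.Agent.Lib.KnownSimple.U43Lab.ChecksB2
import Cfsg.Agent.Lib.KnownSimple.U43Lab.ChecksB3
import Cfsg.Agent.Lib.KnownSimple.U43Lab.ChecksB4
import Cfsg.Agent.Lib.KnownSimple.U43Lab.ChecksB5
import Cfsg.Agent.Lib.KnownSimple.U43Lab.ChecksB6
import Cfsg.Agent.Lib.KnownSimple.U43Lab.ChecksB7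
import Cfsg.Agent.Lib.KnownSimple.U43Lab.ChecksB8
import Cfsg.Agent.Lib.KnownSimple.U43Lab.ChecksV0
import Cfsg.Agent.Lib.KnownSimple.U43Lab.ChecksV1
import Cfsg.Agent.Lib.KnownSimple.U43Lab.ChecksV2
import Cfsg.Agent.Lib.KnownSimple.U43Lab.ChecksV3
import Cfsg.Agent.Lib.KnownSimple.LabTower
import Cfsg.Agent.Lib.KnownSimple.LabFinalA
import Cfsg.Agent.Lib.KnownSimple.LabPoly
import Cfsg.Agent.Lib.KnownSimple.U43Lab.Letters
import Cfsg.Agent.Lib.KnownSimple.U33Lab.Facts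

set_option autoImplicit false
set_option maxRecDepth 100000

universe u

namespace Cfsg.Agent.Lib.KnownSimple.U43Lab

open Cfsg.Agent.Lib.KnownSimple.Lab Subgroup 

def gwx : List ℕ := [1, 0, 0, 1, 0, 3, 2, 3, 2, 1, 2, 1, 0, 3, 2, 3]
def gwy : List ℕ := [0, 0, 1, 0, 1, 0, 1, 1, 2, 1, 2, 3, 3, 2, 3, 3, 2, 1, 0, 1, 0, 1, 2, 3, 3, 2, 3, 3]
def gw (a : ℕ) : List ℕ := [gwx, gwy].getD a []



theorem hgw1 : ∀ a < 2, ∀ b ∈ gw a, b < 2 * 2 := by
  intro a ha
  interval_cases a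
  · exact (by decide +kernel : ∀ b ∈ gwx, b < 2 * 2)
  · exact (by decide +kernel : ∀ b ∈ gwy, b < 2 * 2)

theorem hgw3 : ∀ a < 2, balanced 2 (gw a) = true := by
  intro a ha
  interval_cases a <;> decide +kernel

theorem hT : ∀ a < D.k, ∀ i < D.n, D.T a i < D.n := by
  intro a ha i hi
  have ha' : a < 4 := ha
  have hi' : i < 540 := hi
  show D.T a i < 540
  interval_cases a
  · exact Nat.le_of_ble_eq_true (hT0 i hi')
  · exact Nat.le_of_ble_eq_true (hT1 i hi')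
  · exact Nat.le_of_ble_eq_true (hT2 i hi')
  · exact Nat.le_of_ble_eq_true (hT3 i hi')

theorem hRchk : allI (fun ρ => (Rget ρ).all (fun a => Nat.blt a 4)) 0 12 = true := by decide +kernel

theorem hR : ∀ ρ < D.r, ∀ a ∈ D.R ρ, a < D.k := by
  intro ρ hρ a ha
  have h1 := of_allI hRchk ρ (Nat.zero_le _) hρ
  exact Nat.le_of_ble_eq_true (List.all_eq_true.mp h1 a ha)

theorem hR4 : ∀ ρ < D.r, ∀ a ∈ D.R ρ, a < 4 := hR

theorem hp : ∀ j, 0 < j → j < D.n → D.par j < j ∧ D.gn j < D.k ∧ D.T (D.gn j) (D.par j) = j := by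
  intro j h0 hj
  have h := hTree j hj
  simp only [Bool.or_eq_true, Bool.and_eq_true, Nat.beq_eq, Nat.blt_eq] at h
  rcases h with h | ⟨⟨h1, h2⟩, h3⟩
  · omega
  · exact ⟨h1, h2, h3⟩

theorem hZ : ∀ ρ < D.r, D.Z ρ = true → ∃ a < 2, D.R ρ = [a, a + 2] ∨ D.R ρ = [a + 2, a] ∨
    D.R ρ = (a + 2) :: gw a := by
  intro ρ hρ h
  have hρ' : ρ < 12 := hρ
  interval_cases ρ
  · exact ⟨0, by norm_num, Or.inr (Or.inl rfl)⟩
  · exact ⟨0, by norm_num, Or.inl rfl⟩
  · exact ⟨1, by norm_num, Or.inr (Or.inl rfl)⟩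
  · exact ⟨1, by norm_num, Or.inl rfl⟩
  · exact absurd h (by decide +kernel)
  · exact absurd h (by decide +kernel)
  · exact absurd h (by decide +kernel)
  · exact absurd h (by decide +kernel)
  · exact absurd h (by decide +kernel)
  · exact absurd h (by decide +kernel)
  · exact ⟨0, by norm_num, Or.inr (Or.inr rfl)⟩
  · exact ⟨1, by norm_num, Or.inr (Or.inr rfl)⟩

theorem hPkchk : allI (fun t => (Nat.blt (D.P t).1 4 && Nat.blt (D.P t).2 540) ||
    (Nat.ble 4 (D.P t).1 && Nat.blt ((D.P t).1 - 4) 12 && Nat.beq (D.P t).2 0)) 0 7 = true := by decide +kernel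

theorem hPk : ∀ t < D.m, ((D.P t).1 < D.k ∧ (D.P t).2 < D.n) ∨
    (D.k ≤ (D.P t).1 ∧ (D.P t).1 - D.k < D.r ∧ (D.P t).2 = 0) := by
  intro t ht
  have := of_allI hPkchk t (Nat.zero_le _) ht
  simp only [Bool.or_eq_true, Bool.and_eq_true, Nat.beq_eq, Nat.blt_eq, Nat.ble_eq, and_assoc] at this
  exact this

theorem hPLchk : allI (fun t => vbeq (D.L (D.P t).1 (D.P t).2) (vunit 7 t)) 0 7 = true := by decide +kernel

theorem hPL : ∀ t < D.m, vbeq (D.L (D.P t).1 (D.P t).2) (vunit D.m t) = true := fun t ht =>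
  of_allI hPLchk t (Nat.zero_le _) ht

theorem hvar : ∀ a < D.k, ∀ i < D.n, Dat.varOK D a i = true := by
  intro a ha i hi
  have ha' : a < 4 := ha
  have hi' : i < 540 := hi
  interval_cases a
  · exact hV0 i hi'
  · exact hV1 i hi'
  · exact hV2 i hi'
  · exact hV3 i hi'

theorem hrvchk : allI (fun ρ => Dat.relOK D ρ) 0 12 = true := by decide +kernel

theorem hrv : ∀ ρ < D.r, Dat.relOK D ρ = true := fun ρ hρ => of_allI hrvchk ρ (Nat.zero_le _) hρ

def rels : List (ℕ × ℕ) := [(10, 0), (11, 0), (6, 376), (0, 421), (6, 160), (2, 88), (5, 269), (7, 91), (6, 338), (9, 2), (7, 208), (8, 83), (8, 112), (8, 275), (7, 25), (6, 221)]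

theorem hrelschk : rels.all (fun x => Dat.relClosed D x.1 x.2) = true := by decide +kernel

theorem hrels : ∀ x ∈ rels, Dat.relClosed D x.1 x.2 = true := fun x hx => List.all_eq_true.mp hrelschk x hx

def gv0 : List ℤ := [3, 31, (-30), 0, (-6), 0, 0]
def wN0 : List ℤ := [9, 3, 0, 30, 60, 0, 0, 0, (-5), 0, 27, 0, 0, 0, 0, 1]
def gv1 : List ℤ := [0, (-3), 3, 0, 0, 0, 0]
def wN1 : List ℤ := [0, 0, 0, 0, (-4), 0, 0, 0, 1, 0, (-1), 0, 0, 0, 0, 0]
def gv2 : List ℤ := [0, (-4), 4, 0, 0, 0, 0]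
def wN2 : List ℤ := [0, 0, 0, 0, (-4), 0, 0, 0, 1, 0, (-1), 0, 0, 0, 0, 0]
def gvs : List (List ℤ) := [gv0, gv1, gv2]
def bL : List (List ℤ) := [[0, 30, (-30)], [(-11), 0, 0], [(-11), (-1), 1], [0, 444, (-444)], [(-2), 20, (-20)], [(-2), 127, (-127)], [2, 213, (-213)]]
def WL : List (List ℤ) := [[(-3), 0, 0, (-14), (-6), 0, 0, 0, (-3), 0, (-7), 0, 0, 0, 0, 0], [33, 6, 0, 156, 150, 0, 0, 0, 15, 0, 99, 0, 0, 0, 0, 0], [33, 6, 0, 156, 150, 0, 0, 0, 15, 0, 99, 0, 0, 0, 0, 0], [(-6), 0, 0, (-31), (-140), 0, 0, 0, 25, 0, (-47), 0, 0, 0, 0, 0], [4, 1, 0, 19, 22, 0, 0, 0, 1, 0, 13, 0, 0, 0, 0, 0], [2, 1, 0, 9, (-11), 0, 0, 0, 6, 0, 1, 0, 0, 0, 0, 0], [(-6), (-1), 0, (-30), (-97), 0, 0, 0, 14, 0, (-36), 0, 0, 0, 0, 0]]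

theorem hfinchk : allI (fun u => vbeq (vunit 7 u) (vadd (lin (bL.getD u []) gvs)
    (lin (WL.getD u []) (rels.map fun x => Dat.relRow D x.1 x.2)))) 0 7 = true := by decide +kernel

theorem hfin : ∀ u < D.m, vbeq (vunit D.m u) (vadd (lin (bL.getD u []) gvs)
    (lin (WL.getD u []) (rels.map fun x => Dat.relRow D x.1 x.2))) = true := fun u hu =>
  of_allI hfinchk u (Nat.zero_le _) hu

theorem hN0 : vbeq (vscale ((3 : ℕ) : ℤ) gv0) (lin wN0 (rels.map fun x => Dat.relRow D x.1 x.2)) = true := by decide +kernel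
theorem hN1 : vbeq (vscale ((4 : ℕ) : ℤ) gv1) (lin wN1 (rels.map fun x => Dat.relRow D x.1 x.2)) = true := by decide +kernel
theorem hN2 : vbeq (vscale ((3 : ℕ) : ℤ) gv2) (lin wN2 (rels.map fun x => Dat.relRow D x.1 x.2)) = true := by decide +kernel

/-- The labels. -/
def lab (a i : ℕ) : ZMod 4 × ZMod 3 × ZMod 3 := (((lN0 a i : ℕ) : ZMod 4), (((lN1 a i : ℕ) : ZMod 3), ((lN2 a i : ℕ) : ZMod 3)))

/-- The values of the relators. -/
def vv (ρ : ℕ) : ZMod 4 × ZMod 3 × ZMod 3 := (((nth vvL0 ρ : ℕ) : ZMod 4), (((nth vvL1 ρ : ℕ) : ZMod 3), ((nth vvL2 ρ : ℕ) : ZMod 3)))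

theorem hRL : ∀ ρ < D.r, ∀ i < D.n, walk D.T (D.R ρ) i = i ∧ Dat.pathSum lab D.T (D.R ρ) i = vv ρ := by
  intro ρ hρ i hi
  have hρ' : ρ < 12 := hρ
  have hi' : i < 540 := hi
  interval_cases ρ
  · exact (of_low_pair (of_lowOK (hL0c0 i hi')) (of_low_pair (of_lowOK (hL0c1 i hi')) (of_lowOK (hL0c2 i hi'))))
  · exact (of_low_pair (of_lowOK (hL1c0 i hi')) (of_low_pair (of_lowOK (hL1c1 i hi')) (of_lowOK (hL1c2 i hi'))))
  · exact (of_low_pair (of_lowOK (hL2c0 i hi')) (of_low_pair (of_lowOK (hL2c1 i hi')) (of_lowOK (hL2c2 i hi'))))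
  · exact (of_low_pair (of_lowOK (hL3c0 i hi')) (of_low_pair (of_lowOK (hL3c1 i hi')) (of_lowOK (hL3c2 i hi'))))
  · exact (of_low_pair (of_lowOK (hL4c0 i hi')) (of_low_pair (of_lowOK (hL4c1 i hi')) (of_lowOK (hL4c2 i hi'))))
  · exact (of_low_pair (of_lowOK (hL5c0 i hi')) (of_low_pair (of_lowOK (hL5c1 i hi')) (of_lowOK (hL5c2 i hi'))))
  · exact (of_low_pair (of_lowOK (hL6c0 i hi')) (of_low_pair (of_lowOK (hL6c1 i hi')) (of_lowOK (hL6c2 i hi'))))
  · exact (of_low_pair (of_lowOK (hL7c0 i hi')) (of_low_pair (of_lowOK (hL7c1 i hi')) (of_lowOK (hL7c2 i hi'))))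
  · exact (of_low_pair (of_lowOK (hL8c0 i hi')) (of_low_pair (of_lowOK (hL8c1 i hi')) (of_lowOK (hL8c2 i hi'))))
  · exact (of_low_pair (of_lowOK (hL9c0 i hi')) (of_low_pair (of_lowOK (hL9c1 i hi')) (of_lowOK (hL9c2 i hi'))))
  · exact (of_low_pair (of_lowOK (hL10c0 i hi')) (of_low_pair (of_lowOK (hL10c1 i hi')) (of_lowOK (hL10c2 i hi'))))
  · exact (of_low_pair (of_lowOK (hL11c0 i hi')) (of_low_pair (of_lowOK (hL11c1 i hi')) (of_lowOK (hL11c2 i hi'))))

theorem hinv : ∀ a < 2 * 2, ∀ i < D.n, D.T (invL 2 a) (D.T a i) = i ∧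
    lab (invL 2 a) (D.T a i) + lab a i = 0 := by
  apply hinv_of_rel'
  intro a ha i hi
  have ha' : a < 4 := ha
  interval_cases a
  · exact (of_low_pair (of_lowOK0 (hL0c0 i hi)) (of_low_pair (of_lowOK0 (hL0c1 i hi)) (of_lowOK0 (hL0c2 i hi))))
  · exact (of_low_pair (of_lowOK0 (hL2c0 i hi)) (of_low_pair (of_lowOK0 (hL2c1 i hi)) (of_lowOK0 (hL2c2 i hi))))
  · exact (of_low_pair (of_lowOK0 (hL1c0 i hi)) (of_low_pair (of_lowOK0 (hL1c1 i hi)) (of_lowOK0 (hL1c2 i hi))))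
  · exact (of_low_pair (of_lowOK0 (hL3c0 i hi)) (of_low_pair (of_lowOK0 (hL3c1 i hi)) (of_lowOK0 (hL3c2 i hi))))

theorem hgz : ∀ a < 2, ∀ i < D.n, walk D.T (gw a) i = D.T a i ∧
    Dat.pathSum lab D.T (gw a) i = lab a i := by
  intro a ha
  have hwalk : ∀ i < D.n, walk D.T (gw a) i < D.n := fun i hi =>
    walk_lt (k := D.k) hT (hgw1 a ha) hi
  have ha2 : a + 2 < 2 * 2 := by omega
  have ha3 : a < 2 * 2 := by omega
  have e1 : invL 2 a = a + 2 := by unfold invL; rw [if_pos ha]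
  have e2 : invL 2 (a + 2) = a := by unfold invL; rw [if_neg (by omega)]; omega
  have h1 := hinv a ha3
  have h2 := hinv (a + 2) ha2
  rw [e1] at h1
  rw [e2] at h2
  refine hgz_of_rel' (s := 2) hwalk h2 h1 ?_
  intro i hi
  interval_cases a
  · exact (of_low_pair (of_lowOK0 (hL10c0 i hi)) (of_low_pair (of_lowOK0 (hL10c1 i hi)) (of_lowOK0 (hL10c2 i hi))))
  · exact (of_low_pair (of_lowOK0 (hL11c0 i hi)) (of_low_pair (of_lowOK0 (hL11c1 i hi)) (of_lowOK0 (hL11c2 i hi))))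

theorem hvals : AddSubgroup.closure (vv '' {ρ | ρ < D.r}) = ⊤ := by
  have hm : ∀ ρ < 12, vv ρ ∈ AddSubgroup.closure (vv '' {ρ | ρ < D.r}) :=
    fun ρ h => AddSubgroup.subset_closure ⟨ρ, h, rfl⟩
  apply closure_top_three
  · rw [show ((1, 0, 0) : ZMod 4 × ZMod 3 × ZMod 3) = vv 7 + vv 7 + vv 9 by decide +kernel]
    exact (add_mem (add_mem (hm 7 (by norm_num)) (hm 7 (by norm_num))) (hm 9 (by norm_num)))
  · rw [show ((0, 1, 0) : ZMod 4 × ZMod 3 × ZMod 3) = vv 5 by decide +kernel]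
    exact (hm 5 (by norm_num))
  · rw [show ((0, 0, 1) : ZMod 4 × ZMod 3 × ZMod 3) = vv 7 + vv 7 by decide +kernel]
    exact (add_mem (hm 7 (by norm_num)) (hm 7 (by norm_num)))

def pcV0 : List ℕ := [0, 0, 2, 0, 0, 2, 3]
def pcV1 : List ℕ := [0, 0, 1, 0, 2, 0, 1]
def pcV2 : List ℕ := [0, 0, 1, 0, 2, 0, 1]
def pv (u : ℕ) : ZMod 4 × ZMod 3 × ZMod 3 := (((nth pcV0 u : ℕ) : ZMod 4), (((nth pcV1 u : ℕ) : ZMod 3), ((nth pcV2 u : ℕ) : ZMod 3)))

def hw (b : ℕ) : List ℕ := hwL.getD b []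

def qe (u : ℕ) : List ℕ := qeL.getD u []

theorem hwl : ∀ b < 2 * 2, ∀ a ∈ hw b, a < 2 * 2 := by decide +kernel

theorem hwi : ∀ b < 2, hw (b + 2) = invW 2 (hw b) := by decide +kernel

theorem hqe : ∀ u < D.m, (D.P u).1 < D.k → ∀ b ∈ qe u, b < 2 * 2 := by
  intro u hu _
  exact (by decide +kernel : ∀ u < 7, ∀ b ∈ qe u, b < 2 * 2) u hu

theorem hparW : parH 2 hw D.T D.par D.gn (D.P 2).1 (D.P 2).2 (qe 2) = pw2 ∧ parH 2 hw D.T D.par D.gn (D.P 4).1 (D.P 4).2 (qe 4) = pw4 ∧ parH 2 hw D.T D.par D.gn (D.P 5).1 (D.P 5).2 (qe 5) = pw5 ∧ parH 2 hw D.T D.par D.gn (D.P 6).1 (D.P 6).2 (qe 6) = pw6 := by decide +kernel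

theorem hPnon : ¬ (D.P 0).1 < D.k ∧ ¬ (D.P 1).1 < D.k ∧ ¬ (D.P 3).1 < D.k := by decide +kernel

theorem hparL : ∀ u < D.m, (D.P u).1 < D.k → ∀ i < D.n,
    walk D.T (parH 2 hw D.T D.par D.gn (D.P u).1 (D.P u).2 (qe u)) i = i ∧
    Dat.pathSum lab D.T
      (parH 2 hw D.T D.par D.gn (D.P u).1 (D.P u).2 (qe u)) i = pv u := by
  intro u hu h i hi
  have hu' : u < 7 := hu
  have hi' : i < 540 := hi
  interval_cases u
  · exact absurd h hPnon.1
  · exact absurd h hPnon.2.1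
  · rw [hparW.1]
    exact (of_low_pair (of_lowOK (hLP2c0 i hi')) (of_low_pair (of_lowOK (hLP2c1 i hi')) (of_lowOK (hLP2c2 i hi'))))
  · exact absurd h hPnon.2.2
  · rw [hparW.2.1]
    exact (of_low_pair (of_lowOK (hLP4c0 i hi')) (of_low_pair (of_lowOK (hLP4c1 i hi')) (of_lowOK (hLP4c2 i hi'))))
  · rw [hparW.2.2.1]
    exact (of_low_pair (of_lowOK (hLP5c0 i hi')) (of_low_pair (of_lowOK (hLP5c1 i hi')) (of_lowOK (hLP5c2 i hi'))))
  · rw [hparW.2.2.2]
    exact (of_low_pair (of_lowOK (hLP6c0 i hi')) (of_low_pair (of_lowOK (hLP6c1 i hi')) (of_lowOK (hLP6c2 i hi'))))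

/-- The expansion of the words of the subgroup. -/
theorem hES2 : ∀ w ∈ U33ELab.wordsL, ∃ c : ZMod 4 × ZMod 3 × ZMod 3, ∀ i < D.n,
    walk D.T (subW hw w) i = i ∧ Dat.pathSum lab D.T (subW hw w) i = c := by
  intro w hw'
  simp only [U33ELab.wordsL, List.mem_cons, List.not_mem_nil, or_false] at hw'
  rcases hw' with rfl | rfl | rfl | rfl | rfl | rfl | rfl | rfl | rfl | rfl | rfl | rfl | rfl | rfl | rfl | rfl | rfl | rfl | rfl | rfl | rfl | rfl | rfl | rfl | rfl | rfl | rfl | rfl | rfl | rfl | rfl | rfl | rfl | rfl | rfl | rfl | rfl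
  · rw [show subW hw U33ELab.wr0 = wES0 by decide +kernel]
    exact ⟨_, fun i hi => (of_low_pair (of_lowOK (hES0c0 i hi)) (of_low_pair (of_lowOK (hES0c1 i hi)) (of_lowOK (hES0c2 i hi))))⟩
  · rw [show subW hw U33ELab.wr1 = wES1 by decide +kernel]
    exact ⟨_, fun i hi => (of_low_pair (of_lowOK (hES1c0 i hi)) (of_low_pair (of_lowOK (hES1c1 i hi)) (of_lowOK (hES1c2 i hi))))⟩
  · rw [show subW hw U33ELab.wr2 = wES2 by decide +kernel]
    exact ⟨_, fun i hi => (of_low_pair (of_lowOK (hES2c0 i hi)) (of_low_pair (of_lowOK (hES2c1 i hi)) (of_lowOK (hES2c2 i hi))))⟩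
  · rw [show subW hw U33ELab.wr3 = wES3 by decide +kernel]
    exact ⟨_, fun i hi => (of_low_pair (of_lowOK (hES3c0 i hi)) (of_low_pair (of_lowOK (hES3c1 i hi)) (of_lowOK (hES3c2 i hi))))⟩
  · rw [show subW hw U33ELab.wr4 = wES4 by decide +kernel]
    exact ⟨_, fun i hi => (of_low_pair (of_lowOK (hES4c0 i hi)) (of_low_pair (of_lowOK (hES4c1 i hi)) (of_lowOK (hES4c2 i hi))))⟩
  · rw [show subW hw U33ELab.wr5 = wES5 by decide +kernel]
    exact ⟨_, fun i hi => (of_low_pair (of_lowOK (hES5c0 i hi)) (of_low_pair (of_lowOK (hES5c1 i hi)) (of_lowOK (hES5c2 i hi))))⟩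
  · rw [show subW hw U33ELab.wr6 = wES6 by decide +kernel]
    exact ⟨_, fun i hi => (of_low_pair (of_lowOK (hES6c0 i hi)) (of_low_pair (of_lowOK (hES6c1 i hi)) (of_lowOK (hES6c2 i hi))))⟩
  · rw [show subW hw U33ELab.wr7 = wES7 by decide +kernel]
    exact ⟨_, fun i hi => (of_low_pair (of_lowOK (hES7c0 i hi)) (of_low_pair (of_lowOK (hES7c1 i hi)) (of_lowOK (hES7c2 i hi))))⟩
  · rw [show subW hw U33ELab.wr8 = wES8 by decide +kernel]
    exact ⟨_, fun i hi => (of_low_pair (of_lowOK (hES8c0 i hi)) (of_low_pair (of_lowOK (hES8c1 i hi)) (of_lowOK (hES8c2 i hi))))⟩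
  · rw [show subW hw U33ELab.rw0 = wES9 by decide +kernel]
    exact ⟨_, fun i hi => (of_low_pair (of_lowOK (hES9c0 i hi)) (of_low_pair (of_lowOK (hES9c1 i hi)) (of_lowOK (hES9c2 i hi))))⟩
  · rw [show subW hw U33ELab.rw1 = wES10 by decide +kernel]
    exact ⟨_, fun i hi => (of_low_pair (of_lowOK (hES10c0 i hi)) (of_low_pair (of_lowOK (hES10c1 i hi)) (of_lowOK (hES10c2 i hi))))⟩
  · rw [show subW hw U33ELab.rw2 = wES11 by decide +kernel]
    exact ⟨_, fun i hi => (of_low_pair (of_lowOK (hES11c0 i hi)) (of_low_pair (of_lowOK (hES11c1 i hi)) (of_lowOK (hES11c2 i hi))))⟩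
  · rw [show subW hw U33ELab.rw3 = wES12 by decide +kernel]
    exact ⟨_, fun i hi => (of_low_pair (of_lowOK (hES12c0 i hi)) (of_low_pair (of_lowOK (hES12c1 i hi)) (of_lowOK (hES12c2 i hi))))⟩
  · rw [show subW hw U33ELab.rw4 = wES13 by decide +kernel]
    exact ⟨_, fun i hi => (of_low_pair (of_lowOK (hES13c0 i hi)) (of_low_pair (of_lowOK (hES13c1 i hi)) (of_lowOK (hES13c2 i hi))))⟩
  · rw [show subW hw U33ELab.rw5 = wES14 by decide +kernel]
    exact ⟨_, fun i hi => (of_low_pair (of_lowOK (hES14c0 i hi)) (of_low_pair (of_lowOK (hES14c1 i hi)) (of_lowOK (hES14c2 i hi))))⟩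
  · rw [show subW hw U33ELab.rw6 = wES15 by decide +kernel]
    exact ⟨_, fun i hi => (of_low_pair (of_lowOK (hES15c0 i hi)) (of_low_pair (of_lowOK (hES15c1 i hi)) (of_lowOK (hES15c2 i hi))))⟩
  · rw [show subW hw U33ELab.rw7 = wES16 by decide +kernel]
    exact ⟨_, fun i hi => (of_low_pair (of_lowOK (hES16c0 i hi)) (of_low_pair (of_lowOK (hES16c1 i hi)) (of_lowOK (hES16c2 i hi))))⟩
  · rw [show subW hw U33ELab.rw8 = wES17 by decide +kernel]
    exact ⟨_, fun i hi => (of_low_pair (of_lowOK (hES17c0 i hi)) (of_low_pair (of_lowOK (hES17c1 i hi)) (of_lowOK (hES17c2 i hi))))⟩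
  · rw [show subW hw U33ELab.rw9 = wES18 by decide +kernel]
    exact ⟨_, fun i hi => (of_low_pair (of_lowOK (hES18c0 i hi)) (of_low_pair (of_lowOK (hES18c1 i hi)) (of_lowOK (hES18c2 i hi))))⟩
  · rw [show subW hw U33ELab.rw10 = wES19 by decide +kernel]
    exact ⟨_, fun i hi => (of_low_pair (of_lowOK (hES19c0 i hi)) (of_low_pair (of_lowOK (hES19c1 i hi)) (of_lowOK (hES19c2 i hi))))⟩
  · rw [show subW hw U33ELab.rw11 = wES20 by decide +kernel]
    exact ⟨_, fun i hi => (of_low_pair (of_lowOK (hES20c0 i hi)) (of_low_pair (of_lowOK (hES20c1 i hi)) (of_lowOK (hES20c2 i hi))))⟩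
  · rw [show subW hw U33ELab.rw12 = wES21 by decide +kernel]
    exact ⟨_, fun i hi => (of_low_pair (of_lowOK (hES21c0 i hi)) (of_low_pair (of_lowOK (hES21c1 i hi)) (of_lowOK (hES21c2 i hi))))⟩
  · rw [show subW hw U33ELab.rw13 = wES22 by decide +kernel]
    exact ⟨_, fun i hi => (of_low_pair (of_lowOK (hES22c0 i hi)) (of_low_pair (of_lowOK (hES22c1 i hi)) (of_lowOK (hES22c2 i hi))))⟩
  · rw [show subW hw U33ELab.rw14 = wES23 by decide +kernel]
    exact ⟨_, fun i hi => (of_low_pair (of_lowOK (hES23c0 i hi)) (of_low_pair (of_lowOK (hES23c1 i hi)) (of_lowOK (hES23c2 i hi))))⟩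
  · rw [show subW hw U33ELab.rw15 = wES24 by decide +kernel]
    exact ⟨_, fun i hi => (of_low_pair (of_lowOK (hES24c0 i hi)) (of_low_pair (of_lowOK (hES24c1 i hi)) (of_lowOK (hES24c2 i hi))))⟩
  · rw [show subW hw U33ELab.rw16 = wES25 by decide +kernel]
    exact ⟨_, fun i hi => (of_low_pair (of_lowOK (hES25c0 i hi)) (of_low_pair (of_lowOK (hES25c1 i hi)) (of_lowOK (hES25c2 i hi))))⟩
  · rw [show subW hw U33ELab.rw17 = wES26 by decide +kernel]
    exact ⟨_, fun i hi => (of_low_pair (of_lowOK (hES26c0 i hi)) (of_low_pair (of_lowOK (hES26c1 i hi)) (of_lowOK (hES26c2 i hi))))⟩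
  · rw [show subW hw U33ELab.rw18 = wES27 by decide +kernel]
    exact ⟨_, fun i hi => (of_low_pair (of_lowOK (hES27c0 i hi)) (of_low_pair (of_lowOK (hES27c1 i hi)) (of_lowOK (hES27c2 i hi))))⟩
  · rw [show subW hw U33ELab.rw19 = wES28 by decide +kernel]
    exact ⟨_, fun i hi => (of_low_pair (of_lowOK (hES28c0 i hi)) (of_low_pair (of_lowOK (hES28c1 i hi)) (of_lowOK (hES28c2 i hi))))⟩
  · rw [show subW hw U33ELab.rw20 = wES29 by decide +kernel]
    exact ⟨_, fun i hi => (of_low_pair (of_lowOK (hES29c0 i hi)) (of_low_pair (of_lowOK (hES29c1 i hi)) (of_lowOK (hES29c2 i hi))))⟩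
  · rw [show subW hw U33ELab.pw0 = wES30 by decide +kernel]
    exact ⟨_, fun i hi => (of_low_pair (of_lowOK (hES30c0 i hi)) (of_low_pair (of_lowOK (hES30c1 i hi)) (of_lowOK (hES30c2 i hi))))⟩
  · rw [show subW hw U33ELab.pw1 = wES31 by decide +kernel]
    exact ⟨_, fun i hi => (of_low_pair (of_lowOK (hES31c0 i hi)) (of_low_pair (of_lowOK (hES31c1 i hi)) (of_lowOK (hES31c2 i hi))))⟩
  · rw [show subW hw U33ELab.pw2 = wES32 by decide +kernel]
    exact ⟨_, fun i hi => (of_low_pair (of_lowOK (hES32c0 i hi)) (of_low_pair (of_lowOK (hES32c1 i hi)) (of_lowOK (hES32c2 i hi))))⟩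
  · rw [show subW hw U33ELab.pw3 = wES33 by decide +kernel]
    exact ⟨_, fun i hi => (of_low_pair (of_lowOK (hES33c0 i hi)) (of_low_pair (of_lowOK (hES33c1 i hi)) (of_lowOK (hES33c2 i hi))))⟩
  · rw [show subW hw U33ELab.pw4 = wES34 by decide +kernel]
    exact ⟨_, fun i hi => (of_low_pair (of_lowOK (hES34c0 i hi)) (of_low_pair (of_lowOK (hES34c1 i hi)) (of_lowOK (hES34c2 i hi))))⟩
  · rw [show subW hw U33ELab.pw5 = wES35 by decide +kernel]
    exact ⟨_, fun i hi => (of_low_pair (of_lowOK (hES35c0 i hi)) (of_low_pair (of_lowOK (hES35c1 i hi)) (of_lowOK (hES35c2 i hi))))⟩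
  · rw [show subW hw U33ELab.pw6 = wES36 by decide +kernel]
    exact ⟨_, fun i hi => (of_low_pair (of_lowOK (hES36c0 i hi)) (of_low_pair (of_lowOK (hES36c1 i hi)) (of_lowOK (hES36c2 i hi))))⟩

theorem c_rel : allI (fun ρ => chk (Rget ρ)) 0 12 = true := by decide +kernel
theorem c_p2 : chk pw2 = true := by decide +kernel
theorem c_p4 : chk pw4 = true := by decide +kernel
theorem c_p5 : chk pw5 = true := by decide +kernel
theorem c_p6 : chk pw6 = true := by decide +kernel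
theorem c_HE : ∀ w ∈ U33ELab.wordsL, chk (subW hw w) = true := by decide +kernel
theorem c_HA : ∀ w ∈ U33ALab.wordsL, chk (subW hw w) = true := by decide +kernel
theorem c_HB : ∀ w ∈ U33BLab.wordsL, chk (subW hw w) = true := by decide +kernel

section main

variable {G : Type u} [Group G] [Finite G] (g : ℕ → G)

/-- The multiplier, from the letters. -/
theorem main (hgi : ∀ a < 2, g (a + 2) = (g a)⁻¹) (hgen : closure (g '' {a | a < 2 * 2}) = ⊤)
    (heq : ∀ w : List ℕ, (∀ a ∈ w, a < 4) → chk w = true → wval g w = 1)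
    (hcardG : Nat.card G = 3265920) :
    Cfsg.HasSchurMultiplier G (Multiplicative (ZMod 4 × ZMod 3 × ZMod 3)) := by
  have hcard : Nat.card G = D.n * (U33ELab.D.n * (U33ELab.pcL.map PC.o).prod) := by
    rw [U33ELab.hprod, hcardG]
    decide +kernel
  have hrelG : ∀ ρ < D.r, wval g (D.R ρ) = 1 := by
    intro ρ hρ
    exact heq _ (hR4 ρ hρ) (of_allI c_rel ρ (Nat.zero_le _) hρ)
  have hgw2 : ∀ a < 2, wval g (gw a) = g a := by
    intro a ha
    interval_cases a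
    · have h := hrelG 10 (by decide +kernel)
      rw [show D.R 10 = 2 :: gwx from rfl, wval_cons, show g 2 = (g 0)⁻¹ from hgi 0 (by norm_num)] at h
      exact (inv_mul_eq_one.mp h).symm
    · have h := hrelG 11 (by decide +kernel)
      rw [show D.R 11 = 3 :: gwy from rfl, wval_cons, show g 3 = (g 1)⁻¹ from hgi 1 (by norm_num)] at h
      exact (inv_mul_eq_one.mp h).symm
  have hparG : ∀ u < D.m, (D.P u).1 < D.k →
      wval g (parH 2 hw D.T D.par D.gn (D.P u).1 (D.P u).2 (qe u)) = 1 := by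
    intro u hu h
    have hu' : u < 7 := hu
    interval_cases u
    · exact absurd h hPnon.1
    · exact absurd h hPnon.2.1
    · rw [hparW.1]
      exact heq _ (by decide +kernel) c_p2
    · exact absurd h hPnon.2.2
    · rw [hparW.2.1]
      exact heq _ (by decide +kernel) c_p4
    · rw [hparW.2.2.1]
      exact heq _ (by decide +kernel) c_p5
    · rw [hparW.2.2.2]
      exact heq _ (by decide +kernel) c_p6
  have hsubl : ∀ w : List ℕ, (∀ b ∈ w, b < 2 * 2) → ∀ a ∈ subW hw w, a < 2 * 2 := subW_letters hwl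
  have hsub1 : ∀ w : List ℕ, (∀ b ∈ w, b < 2 * 2) → chk (subW hw w) = true → wval g (subW hw w) = 1 :=
    fun w h1 h2 => heq _ (hsubl w h1) h2
  obtain ⟨hG1, hG2, hG3⟩ := U33ELab.words_of (fun w => wval g (subW hw w) = 1)
    (fun w h => hsub1 w (by revert w; decide +kernel) (c_HE w h))
  obtain ⟨hL1, hL2, hL3⟩ := U33ELab.words_of (fun w => ∃ c : ZMod 4 × ZMod 3 × ZMod 3, ∀ i < D.n,
    walk D.T (subW hw w) i = i ∧ Dat.pathSum lab D.T (subW hw w) i = c) hES2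
  have hcX := card_T D 2 rfl (by decide +kernel) g hgi hgen hw 2 hwl hwi U33ELab.D rfl U33ELab.pcL U33ELab.hpc U33ELab.hlet
    U33ELab.hT U33ELab.hR (by decide +kernel) U33ELab.hp (fun u => U33ELab.peL.getD u []) U33ELab.hPn U33ELab.hvar hcard hG1 hG2 hG3
    hT hR hp hrelG hPk hvar qe hqe hparG
  have hcX' : Nat.card (closure ((fun b => wval g (hw b)) '' {b | b < 2 * 2})) = 6048 := by
    rw [hcX, U33ELab.hprod]
    decide +kernel
  have hi : ∀ b < 2, (fun b => wval g (hw b)) (b + 2) = ((fun b => wval g (hw b)) b)⁻¹ := by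
    intro b hb
    show wval g (hw (b + 2)) = (wval g (hw b))⁻¹
    rw [hwi b hb]
    exact wval_invW g 2 hgi _ (hwl b (by omega))
  have hletter : ∀ w : List ℕ, (∀ b ∈ w, b < 2 * 2) → chk (subW hw w) = true →
      wval (subLetters (fun b => wval g (hw b)) (2 * 2)) w = 1 := by
    intro w h1 h2
    apply Subtype.ext
    rw [subLetters_val _ _ w h1, Subgroup.coe_one, ← wval_subW]
    exact hsub1 w h1 h2
  have hfacts := U33Lab.facts (subLetters (fun b => wval g (hw b)) (2 * 2))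
    (subLetters_inv _ 2 hi) (subLetters_closure _ (2 * 2))
    (fun w h => hletter w (by revert w; decide +kernel) (c_HA w h))
    (fun w h => hletter w (by revert w; decide +kernel) (c_HB w h)) hcX'
  have hSurj : ∀ (Γ : Type u) [Group Γ] [Finite Γ] (σ : Γ →* G), Cfsg.IsStemExtension σ →
      ∀ f : List ℤ → σ.ker, (∀ x : σ.ker, x ∈ closure (f '' {v | v ∈ gvs})) →
      (∀ (v : List ℤ) (N : ℤ) (w : List ℤ),
        vbeq (vscale N v) (lin w (rels.map fun x => Dat.relRow D x.1 x.2)) = true → f v ^ N = 1) →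
      ∃ π : Multiplicative (ZMod 4 × ZMod 3 × ZMod 3) →* σ.ker, Function.Surjective π := by
    intro Γ _ _ σ hσ f hf1 hf2
    have e0 : f gv0 ^ 3 = 1 := by
      have := hf2 gv0 ((3 : ℕ) : ℤ) wN0 hN0
      rwa [zpow_natCast] at this
    have e1 : f gv1 ^ 4 = 1 := by
      have := hf2 gv1 ((4 : ℕ) : ℤ) wN1 hN1
      rwa [zpow_natCast] at this
    have e2 : f gv2 ^ 3 = 1 := by
      have := hf2 gv2 ((3 : ℕ) : ℤ) wN2 hN2
      rwa [zpow_natCast] at this
    have hgen' : ∀ x : σ.ker, x ∈ closure ({f gv1, f gv0, f gv2} : Set σ.ker) := by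
      intro x
      refine (show closure (f '' {v | v ∈ gvs}) ≤ _ from ?_) (hf1 x)
      rw [closure_le]
      rintro _ ⟨v, hv, rfl⟩
      simp only [Set.mem_ofPred_eq, gvs, List.mem_cons, List.not_mem_nil, or_false] at hv
      rcases hv with rfl | rfl | rfl
      · exact subset_closure (by simp)
      · exact subset_closure (by simp)
      · exact subset_closure (by simp)
    have hC : ∀ x y : σ.ker, x * y = y * x := fun x y => Subtype.ext (by
      have := Subgroup.mem_center_iff.mp (hσ.2.1 x.2) (y : Γ)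
      exact this.symm)
    exact surj_three hC 4 3 3 _ _ _ e1 e0 e2 hgen'
  exact final_T D 2 rfl (by decide +kernel) g hgi hgen hw 2 hwl hwi U33ELab.D rfl U33ELab.pcL U33ELab.hpc U33ELab.hlet
    U33ELab.hT U33ELab.hR (by decide +kernel) U33ELab.hp (fun u => U33ELab.peL.getD u []) U33ELab.hPn U33ELab.hvar hcard hG1 hG2 hG3
    gw hgw1 hgw2 hgw3 hT hR hp hrelG hZ hPk hPL hvar hrv rels hrels gvs (fun u => bL.getD u []) (fun u => WL.getD u [])
    hfin hfacts.1 hfacts.2 hSurj lab hinv vv hRL hvals hgz hL1 hL2 hL3 qe pv hqe hparG hparL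

end main

end Cfsg.Agent.Lib.KnownSimple.U43Lab
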